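import Cfsg.Agent.MK.S.Congr
import Cfsg.Agent.MK.S.Pc
import Cfsg.Agent.MK.T.D
import Cfsg.Agent.QTNorm.GTwoThree
import Cfsg.Agent.H64.G23Upper
import Cfsg.Agent.ChevalleyStructure.GraphG2
import Cfsg.Agent.S2121

/-!
# MK, the local side of the triple cover of `G₂(3)` (helper46)

* `a2_Y` : the commutator factor group of a Sylow `2`-subgroup has the order `8`;
* `inn` : the automorphisms of a triple cover which fix the centre are inner;
* `g23_of` : the small row from the number of the faithful characters of odd degree.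
-/

set_option autoImplicit false
set_option maxRecDepth 100000

namespace Cfsg.Agent.MK.S3.G2

open Cfsg Cfsg.Lie Subgroup Cfsg.Agent.MK.T Cfsg.Agent.QTNorm Cfsg.Agent.H64.G23Upper
open Cfsg.Agent.OddHalf.Small.G23Data Cfsg.Agent.OddHalf.Small.G23Check Cfsg.Agent.OddHalf.Small.G23
open scoped commutatorElement

/-- **covers** of a group with self-normalising Sylow subgroups -/
theorem sm_of_a2 {X S : Type} [Group X] [Group S] [Finite X] (φ : X →* S) (hφ : Function.Surjective φ)
    (hk : φ.ker = center X) (ho : Odd (Nat.card (center X)))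
    (hi : ∀ α : MulAut X, (∀ z ∈ center X, α z = z) → ∃ x, α = MulAut.conj x) (hN : SelfN S)
    (h : ∀ (l : X → ℂ) (m : center X →* ℂˣ), Fa (center X) l → (∀ z : center X, l z = m z) →
      kk ⊤ (center X) l = a2 S) : Sm X := by
  have := two_prime
  have : Finite S := Finite.of_surjective φ hφ
  obtain ⟨Q, hQ⟩ := kk_norm φ hφ hk ho (CycN.of_selfN hN)
  refine sm_of_inn hi Q fun l hl => kk_eq_of_hom le_rfl le_top (center_le_normalizer _) fun m hm => ?_
  rw [h l m hl hm, hQ l m hm]
  exact (k0_norm_self hN (Q.mapSurjective hφ)).symm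

/-- the generators of the Sylow subgroup -/
noncomputable def gn (k : ℕ) : Y := GTwoThree.Model.ev GTwoThree.Model.y (PG.getD k [])

theorem ev_gn : ∀ w : List ℕ, S.Pc.ev gn w = GTwoThree.Model.ev GTwoThree.Model.y (ex w)
  | [] => rfl
  | k :: w => by
    rw [S.Pc.ev_cons, ev_gn w, show ex (k :: w) = PG.getD k [] ++ ex w from List.flatMap_cons ..,
      GTwoThree.Model.ev_append]
    rfl

/-- the polycyclic certificate -/
def ct : S.Pc.Cert where
  gw := [[4], [3], [1], [2], [0], [0, 0]]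
  sq := [[], [5], [5], [5], [5], []]
  cm := [[[], [3], [4], [5], [5], []], [[], [], [], [5], [], []], [[], [], [], [], [5], []], [], [], []]
  dv := [([], [], []), ([], [], []), ([], [], []), ([0], [1], []), ([0], [2], []), ([0], [3], [])]

theorem ct_ok : ∀ i < 6, S.Pc.chk1 (fun v w => eqc (ex v) (ex w)) 6 3 ct i = true := by decide +kernel

theorem a2_Y : a2 Y = 8 := by
  have h1 : S.Pc.PC (ct.el gn) 6 3 := S.Pc.pc_of_chk (fun v w h => by
    rw [ev_gn, ev_gn]
    exact eq_of_eqc h) (by norm_num) ct_ok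
  have h2 : PS 5 ≤ S.Pc.V (ct.el gn) 6 0 := by
    refine (closure_le _).2 ?_
    rintro _ ⟨k, hk, rfl⟩
    have h3 : ∀ i < 6, ∀ k, ct.gw.getD i [] = [k] → gn k ∈ S.Pc.V (ct.el gn) 6 0 := fun i hi k e => by
      have h4 := S.Pc.mem_V (g := ct.el gn) (Nat.zero_le i) hi
      rwa [S.Pc.Cert.el, e, S.Pc.ev_cons, S.Pc.ev_nil, mul_one] at h4
    interval_cases k
    exacts [h3 4 (by norm_num) 0 rfl, h3 2 (by norm_num) 1 rfl, h3 3 (by norm_num) 2 rfl, h3 1 (by norm_num) 3 rfl,
      h3 0 (by norm_num) 4 rfl]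
  have h3 : Nat.card (PS 5) = 2 ^ 6 :=
    le_antisymm ((card_le_of_le h2).trans (h1.card_le (Nat.zero_le 6))) card_P
  refine (a2_eq_ab (PS 5) isPGroup_P ?_).trans (h1.index_of h2 h3).2
  have h4 := (PS 5).card_mul_index
  rw [h3, card_G] at h4
  rw [Nat.eq_of_mul_eq_mul_left (by norm_num) h4]
  decide

section cover

variable {X : Type} [Group X] [Finite X] (φ : X →* Y) (hφ : Function.Surjective φ) (hk : φ.ker = center X)
  (h3 : Nat.card (center X) = 3) (hp : _root_.commutator X = ⊤)

include hφ hk h3 hp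

/-- the lifts of two orthogonal root elements do not commute -/
theorem not_comm {u v : X} (hu : φ u = xe 8 1) (hv : φ v = xe 10 1) : u * v ≠ v * u := fun h => by
  have h1 : Com φ 8 10 := fun a b ha hb => by
    obtain ⟨i, hi⟩ := exists_pow ha
    obtain ⟨j, hj⟩ := exists_pow hb
    have h4 : a * (u ^ i)⁻¹ ∈ center X := by
      rw [← hk, MonoidHom.mem_ker, map_mul, map_inv, map_pow, hu, hi, mul_inv_cancel]
    have h5 : b * (v ^ j)⁻¹ ∈ center X := by
      rw [← hk, MonoidHom.mem_ker, map_mul, map_inv, map_pow, hv, hj, mul_inv_cancel]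
    rw [← inv_mul_cancel_right a (u ^ i), ← inv_mul_cancel_right b (v ^ j)]
    exact (Commute.mul_left (mem_center_iff.1 h4 _).symm
      (Commute.mul_right (mem_center_iff.1 h5 _) (Commute.pow_pow h i j)) :)
  have h2 : Com φ 9 6 := h1.refl hφ (by norm_num) (by norm_num) 0 (by norm_num)
  have h4 : Com φ 9 5 := h2.refl hφ (by norm_num) (by norm_num) 1 (by norm_num)
  have h5 : Com φ 8 1 := h4.refl hφ (by norm_num) (by norm_num) 0 (by norm_num)
  have h6 : Com φ 7 0 := h5.refl hφ (by norm_num) (by norm_num) 1 (by norm_num)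
  have : Fact (Nat.Prime 3) := ⟨Nat.prime_three⟩
  have h7 := ker_trivial ⟨hφ, hk.le, hp⟩ (IsPGroup.of_card (n := 1) (by rw [hk, h3, pow_one])) h6
  rw [← hk, h7, card_bot] at h3
  omega

/-- **the automorphisms which fix the centre are inner** -/
theorem inn : ∀ α : MulAut X, (∀ z ∈ center X, α z = z) → ∃ x, α = MulAut.conj x := by
  obtain ⟨β, hβ⟩ := ChevalleyStructure.GraphG2.exists_graph (K := ZMod 3) (by decide)
  have h1 : β (xe 8 1) = xe 10 1 := Subtype.ext (Units.ext (hβ (xe 8 1) 8 1 (by norm_num) rfl))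
  have h2 : β (xe 10 1) = xe 8 1 := Subtype.ext (Units.ext (hβ (xe 10 1) 10 1 (by norm_num) rfl))
  obtain ⟨u, hu⟩ := hφ (xe 8 1)
  obtain ⟨v, hv⟩ := hφ (xe 10 1)
  have h4 : xe 8 1 * xe 10 1 = xe 10 1 * xe 8 1 := Subtype.ext
    (KFacts.Mult.Chev.commute_of_empty isType (by decide) (by decide) (by decide) (by decide) (by decide) 1 1)
  have h5 : ⁅u, v⁆ ∈ center X := by
    rw [← hk, MonoidHom.mem_ker, map_commutatorElement, hu, hv, commutatorElement_eq_one_iff_mul_comm, h4]
  have h6 : ∀ α : MulAut X, (∀ x, φ (α x) = β (φ x)) → ¬ ∀ z ∈ center X, α z = z := fun α hα hz => by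
    have h7 : α u * v⁻¹ ∈ center X := by
      rw [← hk, MonoidHom.mem_ker, map_mul, map_inv, hα, hu, hv, h1, mul_inv_cancel]
    have h8 : α v * u⁻¹ ∈ center X := by
      rw [← hk, MonoidHom.mem_ker, map_mul, map_inv, hα, hu, hv, h2, mul_inv_cancel]
    have h9 := hz _ h5
    rw [map_commutatorElement, ← inv_mul_cancel_right (α u) v, ← inv_mul_cancel_right (α v) u] at h9
    generalize α u * v⁻¹ = y at h7 h9
    generalize α v * u⁻¹ = z at h8 h9
    have h10 : ⁅y * v, z * u⁆ = ⁅u, v⁆⁻¹ := by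
      rw [commutatorElement_inv, commutatorElement_def, commutatorElement_def, ← mem_center_iff.1 h7 v,
        ← mem_center_iff.1 h8 u, mul_inv_rev, mul_inv_rev, mul_assoc v y, ← mem_center_iff.1 h7, mul_assoc v,
        mul_assoc (u * z), mul_inv_cancel_left, mul_assoc u z, ← mem_center_iff.1 h8]
      group
    have h11 : ⁅u, v⁆ ^ 3 = 1 := congrArg Subtype.val (h3 ▸ pow_card_eq_one' (x := (⟨_, h5⟩ : center X)))
    rw [pow_succ, pow_two] at h11
    nth_rewrite 1 [← h9] at h11
    rw [h10, inv_mul_cancel, one_mul, commutatorElement_eq_one_iff_mul_comm] at h11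
    exact not_comm φ hφ hk h3 hp hu hv h11
  refine inn_of_no φ hφ hk hp (β := β) (out_cases ?_ ?_) h6
  · exact S2121.result (F := ZMod 3) 3 1 (by decide) (by norm_num)
  · rintro ⟨s, hs⟩
    obtain ⟨x, rfl⟩ := hφ s
    refine h6 (MulAut.conj x) (fun y => by rw [← hs]; simp) fun z hz => ?_
    rw [MulAut.conj_apply, mem_center_iff.1 hz x, mul_inv_cancel_right]

end cover

/-- the count on the side of the cover -/
def GSide (S : Type) [Group S] : Prop :=
  ∀ (X : Type) [Group X] [Finite X] (φ : X →* S), Function.Surjective φ → φ.ker = center X →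
    Nat.card (center X) = 3 → _root_.commutator X = ⊤ → ∀ (l : X → ℂ) (m : center X →* ℂˣ), Fa (center X) l →
      (∀ z : center X, l z = m z) → kk ⊤ (center X) l = 8

theorem GSide.congr {S S' : Type} [Group S] [Group S'] (h : GSide S) (e : S' ≃* S) : GSide S' :=
  fun X _ _ φ h1 h2 => h X (e.toMonoidHom.comp φ) (e.surjective.comp h1) (by
    rw [← h2]
    ext x
    simp)

theorem smC_Y (h : GSide Y) : S.SmC Y := fun X _ _ φ hφ hk h3 hp _ =>
  sm_of_a2 φ hφ hk (by rw [h3]; decide) (inn φ hφ hk h3 hp) GTwoThree.sn_zmod fun l m hl hm =>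
    (h X φ hφ hk h3 hp l m hl hm).trans a2_Y.symm

/-- **the row of `3.G₂(3)`** from the count over the prime field -/
theorem g23_of (h : GSide Y) (F : Type) [Field F] [Fintype F] (hF : Fintype.card F = 3) :
    S.SmC ↥(chevG2.group F) :=
  (smC_Y h).congr (ChevalleyStructure.FieldIso.groupEquiv chevG2
    (FiniteField.ringEquivOfCardEq (show Fintype.card F = Fintype.card (ZMod 3) from hF)))

end Cfsg.Agent.MK.S3.G2
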